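import Cfsg.Agent.SporB.J3.Family
import Cfsg.Prelude.Def_Sporadic
import Cfsg.Prelude.Def_Classical

set_option autoImplicit false

/-! The permutation and unitary realisations. -/

namespace Cfsg.Agent.SporB.J3

open scoped MatrixGroups Matrix

local notation "Z9" => ZMod 3 × ZMod 3

theorem exists_cube_root {F : Type*} [Field F] [Fintype F] (hF : Fintype.card F = 4) :
    ∃ w : F, w ^ 2 + w + 1 = 0 := by
  classical
  obtain ⟨x, -, hx⟩ : ∃ x ∈ (Finset.univ : Finset F), x ∉ ({0, 1} : Finset F) := by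
    refine Finset.exists_mem_notMem_of_card_lt_card ?_
    rw [Finset.card_univ, hF]
    exact lt_of_le_of_lt Finset.card_le_two (by norm_num)
  simp only [Finset.mem_insert, Finset.mem_singleton, not_or] at hx
  refine ⟨x, mul_left_cancel₀ (sub_ne_zero.2 hx.2) ?_⟩
  have h3 : x ^ 3 = 1 := by
    have := FiniteField.pow_card_sub_one_eq_one x hx.1
    rwa [hF] at this
  linear_combination h3

theorem exists_perm_realization : ∃ H : Subgroup (Equiv.Perm (Fin 6156)),
    Cfsg.IsJ3 H ∧ MulAction.IsPretransitive H (Fin 6156) ∧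
      Nat.card (MulAction.stabilizer H (0 : Fin 6156)) = 8160 := by
  letI : Fintype (GaloisField 2 2) := Fintype.ofFinite _
  have hF : Fintype.card (GaloisField 2 2) = 4 := by
    rw [← Nat.card_eq_fintype_card, GaloisField.card 2 2 (by norm_num)]
    norm_num
  obtain ⟨w, hw⟩ := exists_cube_root hF
  haveI := charP_two_of_card hF
  obtain ⟨H, hH⟩ := exists_index_subgroup w hw
  haveI hs := simple_quotient w hw
  have hc := card_quotient w hw
  obtain ⟨K, ⟨e⟩, htr, hst⟩ := exists_perm_subgroup hs H 6156 hH (by norm_num)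
  refine ⟨K, ⟨e.isSimpleGroup_congr.1 hs, by rw [← Nat.card_congr e.toEquiv, hc]⟩, htr, ?_⟩
  have := hst 0
  rw [hc] at this
  omega

/-- the conjugate transposes of the generators are powers of the generators -/
theorem gens_ct : ∀ i j : Z9,
    (Nat.testBit (powB gen0 8).lo (9 * ix i + ix j) = Nat.testBit (conjB gen0).lo (9 * ix j + ix i) ∧
      Nat.testBit (powB gen0 8).hi (9 * ix i + ix j) = Nat.testBit (conjB gen0).hi (9 * ix j + ix i)) ∧
    (Nat.testBit (powB gen1 7).lo (9 * ix i + ix j) = Nat.testBit (conjB gen1).lo (9 * ix j + ix i) ∧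
      Nat.testBit (powB gen1 7).hi (9 * ix i + ix j) = Nat.testBit (conjB gen1).hi (9 * ix j + ix i)) ∧
    (Nat.testBit (powB gen2 1).lo (9 * ix i + ix j) = Nat.testBit (conjB gen2).lo (9 * ix j + ix i) ∧
      Nat.testBit (powB gen2 1).hi (9 * ix i + ix j) = Nat.testBit (conjB gen2).hi (9 * ix j + ix i)) := by
  decide +kernel

variable {F : Type*} [Field F] (w : F) [Finite F] [CharP F 2] (hw : w ^ 2 + w + 1 = 0)

include hw

theorem GS_unitary {x : GL Z9 F} (hx : x ∈ GS w) :
    (x : Matrix Z9 Z9 F) * (conjM (x : Matrix Z9 Z9 F))ᵀ = 1 := by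
  have gen : ∀ (A : BM) (n : ℕ), powB A (n + 1) = oneB →
      (∀ i j : Z9, Nat.testBit (powB A n).lo (9 * ix i + ix j) =
          Nat.testBit (conjB A).lo (9 * ix j + ix i) ∧
        Nat.testBit (powB A n).hi (9 * ix i + ix j) = Nat.testBit (conjB A).hi (9 * ix j + ix i)) →
      toM w A * (conjM (toM w A))ᵀ = 1 := by
    intro A n hn hb
    have e : (conjM (toM w A))ᵀ = toM w (powB A n) := by
      rw [show conjM (toM w A) = toM w (conjB A) from (toM_conjB hw A).symm]
      ext i j
      simp [toM, (hb i j).1, (hb i j).2]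
    rw [e, powB_spec w hw, ← pow_succ', ← powB_spec w hw, hn, toM_oneB]
  refine closure_induction_finite
    (P := fun x : GL Z9 F => (x : Matrix Z9 Z9 F) * (conjM (x : Matrix Z9 Z9 F))ᵀ = 1)
    (by simp [conjM_one]) (fun g hg => ?_) (fun a b ha hb => ?_) hx
  · rcases hg with hg | hg | hg <;> rw [hg]
    · exact gen _ 8 consts.gpow0 fun i j => (gens_ct i j).1
    · exact gen _ 7 consts.gpow1 fun i j => (gens_ct i j).2.1
    · exact gen _ 1 consts.gpow2 fun i j => (gens_ct i j).2.2
  · rw [Units.val_mul, conjM_mul, Matrix.transpose_mul, ← mul_assoc, mul_assoc (a : Matrix Z9 Z9 F),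
      hb, mul_one, ha]

theorem GS_det {F' : Fintype F} (hF : @Fintype.card F F' = 4) {x : GL Z9 F} (hx : x ∈ GS w) :
    Matrix.det (x : Matrix Z9 Z9 F) = 1 := by
  have h17 : ∀ (c : BM) (e : ℕ), e < 3 → powB c 17 = smulB e oneB → Matrix.det (toM w c) = 1 := by
    intro c e he h
    have hd : Matrix.det (toM w c) ^ 17 = 1 := by
      rw [← Matrix.det_pow, ← powB_spec w hw, h, toM_smulB hw e he, toM_oneB, Matrix.det_smul,
        Matrix.det_one, mul_one, show Fintype.card Z9 = 3 * 3 by decide, ← pow_mul,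
        show e * (3 * 3) = 3 * (3 * e) by ring, pow_mul, w_cube hw, one_pow]
    have h0 : Matrix.det (toM w c) ≠ 0 := by
      intro h0
      rw [h0] at hd
      simp at hd
    have h3 := FiniteField.pow_card_sub_one_eq_one _ h0
    rw [hF] at h3
    calc Matrix.det (toM w c) = Matrix.det (toM w c) * Matrix.det (toM w c) ^ 17 := by
          rw [hd, mul_one]
      _ = (Matrix.det (toM w c) ^ 3) ^ 6 := by ring
      _ = 1 := by
          have h3' : Matrix.det (toM w c) ^ 3 = 1 := h3
          rw [h3', one_pow]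
  have hc1 : ∀ (n : ℕ) (c : BM), n < 6156 → bmul (cT n) uB = bmul c (cT n) →
      Matrix.det (toM w c) = 1 := by
    intro n c hn h
    have hu : Matrix.det (toM w uB) = 1 := h17 uB 0 (by norm_num) consts.upow
    have := congrArg (fun A => Matrix.det (toM w A)) h
    simp only [toM_bmul w hw, Matrix.det_mul, hu, mul_one] at this
    obtain ⟨t, -, et⟩ := cT_mem w hw n hn
    have ht : Matrix.det (toM w (cT n)) ≠ 0 := by
      rw [← et, ← Matrix.GeneralLinearGroup.val_det_apply]
      exact Units.ne_zero _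
    exact (mul_left_eq_self₀.1 this.symm).resolve_right ht
  obtain ⟨-, -, -, -, -, -, -, -, -, -, -, -, -, d0, d1, d2, -⟩ := index_check
  refine closure_induction_finite (P := fun x : GL Z9 F => Matrix.det (x : Matrix Z9 Z9 F) = 1)
    (by simp) (fun g hg => ?_) (fun a b ha hb => by rw [Units.val_mul, Matrix.det_mul, ha, hb, one_mul]) hx
  rcases hg with hg | hg | hg <;> rw [hg]
  · rw [← consts.d0b, toM_bmul w hw, Matrix.det_mul, hc1 _ _ d0 consts.d0a,
      h17 _ 1 (by norm_num) consts.d0c, one_mul]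
  · rw [← consts.d1b, toM_bmul w hw, Matrix.det_mul, hc1 _ _ d1 consts.d1a,
      h17 _ 1 (by norm_num) consts.d1c, one_mul]
  · rw [← consts.d2b, toM_bmul w hw, Matrix.det_mul, hc1 _ _ d2 consts.d2a,
      h17 _ 0 (by norm_num) (by rw [consts.d2c]; rfl), one_mul]

omit w [Finite F] [CharP F 2] hw in
theorem exists_unitary_realization : ∃ (F : Type) (_ : Field F) (_ : Fintype F),
    Fintype.card F = 4 ∧ ∃ H : Subgroup (Cfsg.SU 9 F 2),
      Nat.card (Subgroup.center H) = 3 ∧ Cfsg.IsJ3 (H ⧸ Subgroup.center H) := by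
  classical
  letI : Fintype (GaloisField 2 2) := Fintype.ofFinite _
  have hF : Fintype.card (GaloisField 2 2) = 4 := by
    rw [← Nat.card_eq_fintype_card, GaloisField.card 2 2 (by norm_num)]
    norm_num
  refine ⟨GaloisField 2 2, inferInstance, inferInstance, hF, ?_⟩
  obtain ⟨w, hw⟩ := exists_cube_root hF
  haveI := charP_two_of_card hF
  let e : Z9 ≃ Fin 9 := Fintype.equivFinOfCardEq (by decide)
  let R := Matrix.reindexAlgEquiv (GaloisField 2 2) (GaloisField 2 2) e
  let toSL : GS w →* Matrix.SpecialLinearGroup (Fin 9) (GaloisField 2 2) :=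
    { toFun := fun x => ⟨R ((x : GL Z9 (GaloisField 2 2)) : Matrix Z9 Z9 (GaloisField 2 2)), by
        show Matrix.det (Matrix.reindex e e _) = 1
        rw [Matrix.det_reindex_self, GS_det w hw hF x.2]⟩
      map_one' := Subtype.ext (map_one R)
      map_mul' := fun a b => Subtype.ext (map_mul R _ _) }
  have hmem : ∀ x, toSL x ∈ Cfsg.SU 9 (GaloisField 2 2) 2 := by
    intro x u v
    set M := ((x : GL Z9 (GaloisField 2 2)) : Matrix Z9 Z9 (GaloisField 2 2)) with hM
    have h1 : (conjM M)ᵀ * M = 1 := by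
      have := GS_unitary w hw x.2
      exact mul_eq_one_comm.1 this
    have h2 : Mᵀ * conjM M = 1 := by
      have := congrArg Matrix.transpose h1
      simpa using this
    set N := Matrix.reindex e e M with hN
    have h3 : Nᵀ * N.map (fun a => a ^ 2) = 1 := by
      have := congrArg R h2
      rw [map_mul, map_one] at this
      exact this
    show Cfsg.hermForm 9 (GaloisField 2 2) 2 (N *ᵥ u) (N *ᵥ v) = Cfsg.hermForm 9 (GaloisField 2 2) 2 u v
    have hsq : ∀ i, (N *ᵥ v) i ^ 2 = (N.map (fun a => a ^ 2) *ᵥ fun j => v j ^ 2) i := by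
      intro i
      simp only [Matrix.mulVec, dotProduct, Matrix.map_apply, ← mul_pow]
      exact sum_pow_char 2 _ _
    calc Cfsg.hermForm 9 (GaloisField 2 2) 2 (N *ᵥ u) (N *ᵥ v)
        = (N *ᵥ u) ⬝ᵥ (N.map (fun a => a ^ 2) *ᵥ fun j => v j ^ 2) := by
          simp only [Cfsg.hermForm, dotProduct, hsq]
      _ = u ⬝ᵥ ((Nᵀ * N.map (fun a => a ^ 2)) *ᵥ fun j => v j ^ 2) := by
          rw [← Matrix.mulVec_mulVec, Matrix.dotProduct_mulVec u Nᵀ, Matrix.vecMul_transpose]
      _ = _ := by rw [h3, Matrix.one_mulVec]; rfl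
  let f : GS w →* Cfsg.SU 9 (GaloisField 2 2) 2 := toSL.codRestrict _ hmem
  have hf : Function.Injective f := by
    intro a b h
    have h1 : toSL a = toSL b := congrArg Subtype.val h
    exact Subtype.ext (Units.ext (R.injective (congrArg Subtype.val h1)))
  let ef := MonoidHom.ofInjective hf
  have hmap : (Subgroup.center (GS w)).map ef.toMonoidHom = Subgroup.center f.range := by
    ext y
    simp only [Subgroup.mem_map, Subgroup.mem_center_iff]
    constructor
    · rintro ⟨x, hx, rfl⟩ g
      obtain ⟨g', rfl⟩ := ef.surjective g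
      show ef g' * ef x = ef x * ef g'
      rw [← map_mul, hx g', map_mul]
    · intro hy
      obtain ⟨x, rfl⟩ := ef.surjective y
      exact ⟨x, fun g => ef.injective (by rw [map_mul, map_mul, hy (ef g)]), rfl⟩
  let eq := QuotientGroup.congr _ _ ef hmap
  refine ⟨f.range, ?_, eq.isSimpleGroup_congr.1 (simple_quotient w hw), ?_⟩
  · rw [← hmap, Subgroup.card_map_of_injective (f := ef.toMonoidHom) ef.injective,
      card_center_GS w hw]
  · rw [← Nat.card_congr eq.toEquiv, card_quotient w hw]

end Cfsg.Agent.SporB.J3
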