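import Cfsg.Agent.SporB.J3.InvTests
import Cfsg.Agent.SporB.J3.Scalar
import Cfsg.Agent.SchurCert.Trivial

set_option autoImplicit false

/-! Natural number codes for the elements of the triple cover of J3. -/

namespace Cfsg.Agent.SporB.J3

open scoped MatrixGroups

local notation "Z9" => ZMod 3 × ZMod 3

/-- reading a code -/
def decB (n : ℕ) : BM := ⟨n >>> 81, n &&& (2 ^ 81 - 1)⟩

/-- the product of codes -/
def mulK (a b : ℕ) : ℕ := keyB (bmul (decB a) (decB b))

/-- the code of the identity -/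
def oneK : ℕ := keyB oneB

/-- positions agree with codes -/
noncomputable def witKeys (ws : List (ℕ × ℕ × ℕ)) (ks : List ℕ) : Bool :=
  Nat.beq ws.length ks.length && (List.range ws.length).all fun i =>
    Nat.blt (ws.getD i (0, 0, 0)).1 6156 && Nat.blt (ws.getD i (0, 0, 0)).2.1 255 &&
    Nat.blt (ws.getD i (0, 0, 0)).2.2 96 &&
    Nat.beq (keyB (tripB (ws.getD i (0, 0, 0)))) (ks.getD i oneK)

theorem decB_keyB {A : BM} (h : goodB A = true) : decB (keyB A) = A := by
  obtain ⟨l, u⟩ := A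
  simp only [goodB, Bool.and_eq_true, Nat.blt_eq] at h
  obtain ⟨-, hu⟩ := h
  have e : (l <<< 81) ||| u = 2 ^ 81 * l + u := by
    rw [Nat.two_pow_add_eq_or_of_lt hu, Nat.shiftLeft_eq, mul_comm]
  simp only [decB, keyB, BM.mk.injEq]
  rw [e, Nat.shiftRight_eq_div_pow, Nat.and_two_pow_sub_one_eq_mod, Nat.mul_add_div (by norm_num),
    Nat.div_eq_of_lt hu, Nat.mul_add_mod, Nat.mod_eq_of_lt hu, add_zero]
  exact ⟨rfl, rfl⟩

variable {F : Type*} [Field F] (w : F) [Finite F] [CharP F 2] (hw : w ^ 2 + w + 1 = 0)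

include hw

/-- every element of the group has a packed matrix -/
theorem exists_packed (x : GS w) :
    ∃ A, goodB A = true ∧ ((x : GL Z9 F) : Matrix Z9 Z9 F) = toM w A := by
  refine closure_induction_finite (P := fun x : GL Z9 F =>
      ∃ A, goodB A = true ∧ (x : Matrix Z9 Z9 F) = toM w A) ?_ (fun g hg => ?_) (fun a b ha hb => ?_) x.2
  · exact ⟨oneB, by decide +kernel, by rw [Units.val_one, toM_oneB]⟩
  · rcases hg with hg | hg | hg
    exacts [⟨gen0, by decide +kernel, hg⟩, ⟨gen1, by decide +kernel, hg⟩, ⟨gen2, by decide +kernel, hg⟩]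
  · obtain ⟨A, -, eA⟩ := ha
    obtain ⟨B, -, eB⟩ := hb
    exact ⟨bmul A B, goodB_bmul _ _, by rw [Units.val_mul, eA, eB, toM_bmul w hw]⟩

/-- the matrix of an element -/
noncomputable def packOf (x : GS w) : BM := (exists_packed w hw x).choose

theorem packOf_spec (x : GS w) :
    goodB (packOf w hw x) = true ∧ ((x : GL Z9 F) : Matrix Z9 Z9 F) = toM w (packOf w hw x) :=
  (exists_packed w hw x).choose_spec

theorem packOf_eq {x : GS w} {A : BM} (hA : goodB A = true)
    (h : ((x : GL Z9 F) : Matrix Z9 Z9 F) = toM w A) : packOf w hw x = A :=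
  toM_inj hw (packOf_spec w hw x).1 hA ((packOf_spec w hw x).2.symm.trans h)

/-- the code of the group -/
noncomputable def groupCode : SchurCert.Code (GS w) where
  mul := mulK
  one := oneK
  enc x := keyB (packOf w hw x)
  enc_one := congrArg keyB (packOf_eq w hw (by decide +kernel) (by simp [toM_oneB]))
  enc_mul a b := by
    rw [mulK, decB_keyB (packOf_spec w hw a).1, decB_keyB (packOf_spec w hw b).1]
    refine congrArg keyB (packOf_eq w hw (goodB_bmul _ _) ?_)
    rw [Subgroup.coe_mul, Units.val_mul, toM_bmul w hw, ← (packOf_spec w hw a).2,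
      ← (packOf_spec w hw b).2]
  enc_inj a b h := by
    have e := congrArg decB h
    rw [decB_keyB (packOf_spec w hw a).1, decB_keyB (packOf_spec w hw b).1] at e
    exact Subtype.ext (Units.ext ((packOf_spec w hw a).2.trans (by rw [e]; exact (packOf_spec w hw b).2.symm)))

theorem exists_elems {ws : List (ℕ × ℕ × ℕ)} {ks : List ℕ} (h : witKeys ws ks = true) :
    ∃ g : ℕ → GS w, ∀ i, (groupCode w hw).enc (g i) = ks.getD i oneK := by
  refine ⟨fun i => (?_ : ∃ x : GS w, (groupCode w hw).enc x = ks.getD i oneK).choose,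
    fun i => Exists.choose_spec (p := fun x : GS w => (groupCode w hw).enc x = ks.getD i oneK) _⟩
  simp only [witKeys, Bool.and_eq_true, List.all_eq_true, List.mem_range] at h
  rcases Nat.lt_or_ge i ks.length with hi | hi
  · obtain ⟨⟨⟨h1, h2⟩, h3⟩, h4⟩ := h.2 i (eq_of_beq' h.1 ▸ hi)
    obtain ⟨x, hx, ex⟩ := inS_mul w hw (cT_mem w hw _ (lt_of_blt h1))
      (inS_mono w (HS_le w hw) (US_mem w hw (lt_of_blt h2) (lt_of_blt h3)))
    refine ⟨⟨x, hx⟩, ?_⟩
    rw [← eq_of_beq' h4]
    exact congrArg keyB (packOf_eq w hw (goodB_bmul _ _) ex)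
  · exact ⟨1, by rw [List.getD_eq_default _ _ hi]; exact (groupCode w hw).enc_one⟩

theorem not_dvd_of_cert (D : SchurCert.Cert) (p m : ℕ) [Fact p.Prime] (hDp : D.P.p = p)
    (gw fw : List (ℕ × ℕ × ℕ)) (hg : witKeys gw D.gens = true) (hf : witKeys fw D.gs = true)
    (hcheck : D.check mulK oneK = true) (hN : 150698880 = p ^ D.P.n * m) (hm : ¬ p ∣ m) :
    ¬ p ∣ Nat.card (CentralExt.schurMult ↥(GS w)) := by
  obtain ⟨gen, hgen⟩ := exists_elems w hw hg
  obtain ⟨gsE, hgs⟩ := exists_elems w hw hf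
  have hchk := hcheck
  simp only [SchurCert.Cert.check, Bool.and_eq_true] at hchk
  obtain ⟨-, hcard⟩ := SchurCert.card_initGroup_of_groupOK (groupCode w hw) D (hDp ▸ Fact.out) gen
    (fun i _ => hgen i) hchk.1.1.1 hchk.1.1.2
  refine SchurCert.not_dvd_schurMult_of_cert (groupCode w hw) D p hDp gen gsE (fun i _ => hgen i)
    hgs ?_ hcheck
  rw [SchurCert.index_initGroup (card_GS w hw) hcard (m := m) (by rw [hDp]; exact hN)]
  exact hm

end Cfsg.Agent.SporB.J3
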