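import Cfsg.Agent.SporB.J3.SchurTwoCheck
import Cfsg.Agent.SporB.J3.SchurThreeCheck
import Cfsg.Prelude.Def_KGroupFacts

set_option autoImplicit false

/-! The Schur multiplier of J3 has order three. -/

namespace Cfsg.Agent.SporB.J3

theorem sq_not_dvd_cofactor : ∀ q < 41, q ≠ 1 → 1615 % (q * q) ≠ 0 := by
  decide +kernel

variable {F : Type*} [Field F] (w : F) [Finite F] [CharP F 2] (hw : w ^ 2 + w + 1 = 0)

include hw

theorem cover_trivial_multiplier :
    Cfsg.HasCyclicSchurMultiplier ↥(Cfsg.Spor.threeJ3 F w) 1 := by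
  rw [threeJ3_eq w hw]
  refine CentralExt.hasCyclicSchurMultiplier_one_of_not_dvd fun p hp => ?_
  haveI : Fact p.Prime := ⟨hp⟩
  rcases eq_or_ne p 2 with rfl | h2
  · exact not_dvd_of_cert w hw twoSchurCert 2 1177335 rfl twoGenWit twoFusWit two_schur_wit.1
      two_schur_wit.2 two_schur_check (by decide +kernel) (by norm_num)
  rcases eq_or_ne p 3 with rfl | h3
  · exact not_dvd_of_cert w hw threeSchurCert 3 206720 rfl threeGenWit threeFusWit
      three_schur_wit.1 three_schur_wit.2 three_schur_check (by decide +kernel) (by norm_num)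
  refine SchurCert.not_dvd_schurMult_of_sq_not_dvd p fun h => ?_
  rw [card_GS w hw, show 150698880 = 2 ^ 7 * 3 ^ 6 * 1615 by norm_num] at h
  have hc2 : Nat.Coprime p 2 := (Nat.coprime_primes hp Nat.prime_two).2 h2
  have hc3 : Nat.Coprime p 3 := (Nat.coprime_primes hp Nat.prime_three).2 h3
  have hd : p ^ 2 ∣ 1615 :=
    (Nat.Coprime.mul_right (hc2.pow 2 7) (hc3.pow 2 6)).dvd_of_dvd_mul_left h
  have hle : p * p ≤ 1615 := pow_two p ▸ Nat.le_of_dvd (by norm_num) hd
  exact sq_not_dvd_cofactor p (by nlinarith) hp.ne_one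
    (Nat.mod_eq_zero_of_dvd (pow_two p ▸ hd))

theorem schurMultiplier_J3 : Cfsg.HasCyclicSchurMultiplier (Cfsg.Spor.J3 F w) 3 := by
  haveI : Fact (Nat.Prime 3) := ⟨by norm_num⟩
  have hst : Cfsg.IsStemExtension
      (QuotientGroup.mk' (Subgroup.center ↥(Cfsg.Spor.threeJ3 F w))) :=
    ⟨QuotientGroup.mk'_surjective _, le_of_eq (QuotientGroup.ker_mk' _),
      (QuotientGroup.ker_mk' _).le.trans (center_le_commutator w hw)⟩
  refine CentralExt.hasSchurMultiplier_of_universal hst (cover_trivial_multiplier w hw) ?_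
  refine mulEquivOfPrimeCardEq (p := 3) ?_ (by simp)
  rw [QuotientGroup.ker_mk']
  exact (threeJ3_facts w hw).1

end Cfsg.Agent.SporB.J3
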