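import Cfsg.Agent.SporB.J3.SchurTwoData
import Cfsg.Agent.SporB.J3.SchurCode

set_option autoImplicit false
set_option maxRecDepth 40000

namespace Cfsg.Agent.SporB.J3

theorem two_schur_wit :
    witKeys twoGenWit twoSchurCert.gens = true ∧ witKeys twoFusWit twoSchurCert.gs = true := by
  decide +kernel

theorem two_schur_check : twoSchurCert.check mulK oneK = true := by decide +kernel

end Cfsg.Agent.SporB.J3
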