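import Cfsg.Agent.SchurCert.Cert

set_option autoImplicit false
set_option maxRecDepth 40000

/-! Certificate for the 2-part of the multiplier of the triple cover of J3. -/

namespace Cfsg.Agent.SporB.J3

open Cfsg.Agent.SchurCert

/-- positions of the generators -/
def twoGenWit : List (ℕ × ℕ × ℕ) := [(4631, 0, 60), (4233, 182, 58), (3626, 250, 34), (5414, 83, 42), (4631, 212, 89), (3626, 77, 30), (3470, 100, 22)]

/-- positions of the fusing elements -/
def twoFusWit : List (ℕ × ℕ × ℕ) := [(4965, 64, 65), (536, 85, 74), (4404, 85, 85)]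

/-- the certificate -/
def twoSchurCert : Cert where
  P :=
    { p := 2
      n := 7
      powW := [[], [], [0], [], [0], [], [1]]
      cjW := [[], [[0]], [[0], [1]], [[0], [1], [0, 2]], [[0], [1], [0, 2], [0, 1, 3]], [[0], [0, 1], [0, 2], [0, 2, 3], [0, 4]], [[0], [1], [0, 1, 2], [1, 3], [4], [0, 4, 5]]] }
  gens := [
    3989106535341824431089808982996228146840530821572,
    3189583987390008986406143037990080581844915851380,
    817666254577373538234537140408996322797611143172,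
    114035806830483279366692448106051043478622398816,
    3376995705465292015271329092496962236525282683910,
    11417981544316560357028726229415725302552789248,
    152796867382923060205808342425516832743001893382]
  gs := [
    2489532790273634374523419793809633726487702004433,
    2141877619033187981052969209431693905212068692515,
    2649140445435636803140840191640856597640647858453]
  rows := [
    .assoc 6 6 6,
    .assoc 6 6 5,
    .assoc 6 6 4,
    .assoc 6 6 3,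
    .assoc 6 6 2,
    .assoc 6 6 0,
    .assoc 6 5 5,
    .assoc 6 5 4,
    .assoc 6 5 3,
    .assoc 6 5 2,
    .assoc 6 5 1,
    .assoc 6 3 2,
    .assoc 6 2 2,
    .assoc 5 5 4,
    .assoc 5 5 3,
    .assoc 5 4 3,
    .assoc 5 4 2,
    .assoc 5 3 3,
    .fus 0 [[5], [0]] [[2, 3], [0, 2, 6]] [0, 0] [],
    .fus 0 [[5], [0]] [[2, 3], [0, 2, 6]] [1, 1] [],
    .fus 0 [[5], [0]] [[2, 3], [0, 2, 6]] [1, 0] [0, 1],
    .fus 1 [[5], [0]] [[1, 2, 3, 4, 6], [1, 3]] [1, 1] [],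
    .fus 2 [[1], [6], [0, 6], [3, 4, 6]] [[0], [0, 2, 4, 5], [2, 4], [1, 4]] [1, 1, 2, 2] [0, 0],
    .fus 2 [[1], [6], [0, 6], [3, 4, 6]] [[0], [0, 2, 4, 5], [2, 4], [1, 4]] [1, 1, 3, 2] [0, 0, 2, 3]]
  beta := [[24, 25], [25], [19, 24, 25], [], [24, 25, 27], [], []]
  combo := [[0, 2, 4, 5, 7, 10, 12, 13, 16], [0, 3, 5, 7, 9, 10, 11, 13, 15, 16], [5], [7, 12, 13, 17, 20], [0, 4, 12], [0, 2, 3, 5, 7, 9, 11, 12, 15], [2, 3, 4, 5, 7, 10, 12, 13, 16, 21], [0, 2, 3, 5, 7, 10, 11, 12, 13, 16], [5, 7, 9, 10, 11, 13, 15, 16], [0, 2, 3, 5, 10, 11, 16, 20], [6, 11, 13, 14, 16, 18, 20, 21, 22], [2, 5, 7, 10], [2], [1, 2, 3, 4, 5, 9, 10, 11, 13, 19, 22, 23], [0, 2, 3, 5, 7, 8, 9, 10, 11, 12, 13], [0, 2, 4, 5, 7, 10, 11, 13, 16, 17, 18, 21], [0, 2, 4, 5, 7, 10, 12, 16], [0, 1, 2, 3, 5, 11, 12, 19, 22, 23], [2, 5, 10, 12, 13, 14, 16, 17, 20], [], [0, 2, 4, 5, 7, 10, 11, 12, 13, 14, 18, 20, 21, 22], [0, 4, 7, 12, 13, 17, 19, 20], [7], [0], [], [],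 [0, 3, 6, 10, 12, 13, 14, 16, 18, 19, 20, 21, 23], []]

end Cfsg.Agent.SporB.J3
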